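import Cfsg.Agent.H211.M5.VFn
import Cfsg.Agent.H768.M5.FnPG
import Cfsg.Agent.H738.M5.NotConj
import Cfsg.Agent.H411.M5.PGFacts

/-!
# `V` is fully normalized (helper211, task S5230-P5, closed)
-/

set_option autoImplicit false

namespace Cfsg.Agent.H211.M5

open Cfsg.Agent.H777.M5

theorem V_fn {G : Type} [Group G] [Finite G] (M : MX G) : M.F.IsFullyNormalized M.V :=
  V_fn_of M Cfsg.Agent.H411.M5.card_SN (fun ψ hψ => Cfsg.Agent.H768.M5.fn_pg ψ hψ)
    (fun g hL hV => Cfsg.Agent.H738.M5.not_conj_SA M g hL hV)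

end Cfsg.Agent.H211.M5
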